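import Cfsg.Agent.H55.BG16.Tame
import Cfsg.Agent.H57.TypeIAgree

/-!
Theorems I and II for the listed predicates, given that no maximal subgroup of type V has a mate.
-/

set_option autoImplicit false
set_option linter.unusedVariables false

namespace Cfsg.Agent.H55.BG16

universe u

variable {G : Type u} [Group G] [Finite G]

variable (hG : Cfsg.IsMinSimpleOddOrder G) (hI : Inputs G)
  (hV : ∀ M T W₁ U W₂ V : Subgroup G, IsCoatom M → Cfsg.IsTypePWith M W₁ U W₂ →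
    H26.PF.Mate T W₂ V W₁ → ¬ Cfsg.IsOfTypeV M)
include hG hI hV

theorem frozen_typeI_iff
    (M : Subgroup G) (hM : IsCoatom M) (K U : Subgroup G) (hKU : Cfsg.IsSigmaDecomposition M K U) :
    Cfsg.IsOfTypeI M ↔ (K = ⊥ ∧ U ≠ ⊥) :=
  (H57.typeI'_iff_typeI hG hI hV hM).symm.trans (typeI_iff hG hM hI hKU)

theorem frozen_typeI_or_pair :
    (∀ M : Subgroup G, IsCoatom M → Cfsg.IsOfTypeI M) ∨
      ∃ W₁ W₂ S T : Subgroup G, Cfsg.IsSelfNormalizingCyclic W₁ W₂ ∧ IsCoatom S ∧ IsCoatom T ∧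
        Cfsg.IsComplIn ⁅S, S⁆ W₁ S ∧ Cfsg.IsComplIn ⁅T, T⁆ W₂ T ∧ S ⊓ T = W₁ ⊔ W₂ ∧
        (Cfsg.IsOfTypeII S ∨ Cfsg.IsOfTypeII T) ∧
        (Cfsg.IsOfTypeII S ∨ Cfsg.IsOfTypeIII S ∨ Cfsg.IsOfTypeIV S ∨ Cfsg.IsOfTypeV S) ∧
        (Cfsg.IsOfTypeII T ∨ Cfsg.IsOfTypeIII T ∨ Cfsg.IsOfTypeIV T ∨ Cfsg.IsOfTypeV T) ∧
        ∀ M : Subgroup G, IsCoatom M → Cfsg.IsOfTypeI M ∨ ∃ g : G, M = S.map (MulAut.conj g).toMonoidHom ∨ M = T.map (MulAut.conj g).toMonoidHom := by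
  rcases typeI_or_pair hG hI with h | ⟨W₁, W₂, S, T, h1, hS, hT, h2, h3, h4, h5, h6, h7, h8⟩
  · exact Or.inl fun M hM => (H57.typeI'_iff_typeI hG hI hV hM).1 (h M hM)
  · exact Or.inr ⟨W₁, W₂, S, T, h1, hS, hT, h2, h3, h4, h5, h6, h7,
      fun M hM => (h8 M hM).imp_left (H57.typeI'_iff_typeI hG hI hV hM).1⟩

theorem frozen_typeI_II_complement
    (M : Subgroup G) (hM : IsCoatom M) (U : Subgroup G)
    (hU : (Cfsg.IsOfTypeI M ∧ Cfsg.IsComplIn (Cfsg.fittingHallOf M) U M) ∨ (Cfsg.IsOfTypeII M ∧ Cfsg.IsComplIn (Cfsg.fittingHallOf M) U ⁅M, M⁆)) :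
    (∀ (p : ℕ), p.Prime → ∀ P : Sylow p U, IsMulCommutative (P : Subgroup U) ∧ Cfsg.PRankLE p 2 (P : Subgroup U)) ∧
      (∀ X : Set G, X ⊆ (U : Set G) \ {1} → X.Nonempty → Cfsg.fittingHallOf M ⊓ Subgroup.centralizer X ≠ ⊥ →
        Subgroup.centralizer X ≤ M ∧ ∀ L : Subgroup G, IsCoatom L → Subgroup.centralizer X ≤ L → L = M) ∧
      Cfsg.IsTISubset (Cfsg.typeA M \ Cfsg.typeA1 M) := by
  rw [← H57.typeA'_eq hG hI hV hM]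
  exact typeI_II_complement hG hM hI
    (hU.imp_left (And.imp_left (H57.typeI'_iff_typeI hG hI hV hM).2))

theorem frozen_tame_embedding
    (M : Subgroup G) (hM : IsCoatom M) (X : Set G) (hX : X = Cfsg.typeA M ∨ X = Cfsg.typeA0 M) :
    (∀ x ∈ X, ∀ g : G, g * x * g⁻¹ ∈ X → ∃ m ∈ M, m * x * m⁻¹ = g * x * g⁻¹) ∧
      (∀ x ∈ X, ¬ Subgroup.centralizer ({x} : Set G) ≤ M → x ∈ Cfsg.typeA1 M ∧ ∃! L : Subgroup G, IsCoatom L ∧ Subgroup.centralizer ({x} : Set G) ≤ L) ∧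
      ∀ x ∈ X, ¬ Subgroup.centralizer ({x} : Set G) ≤ M → ∀ L : Subgroup G, IsCoatom L → Subgroup.centralizer ({x} : Set G) ≤ L →
        Cfsg.IsComplIn (Cfsg.fittingHallOf L) (M ⊓ L) L ∧
        Subgroup.centralizer ({x} : Set G) ≤ Subgroup.normalizer ((Cfsg.fittingHallOf L ⊓ Subgroup.centralizer ({x} : Set G) : Subgroup G) : Set G) ∧
        Cfsg.IsComplIn (Cfsg.fittingHallOf L ⊓ Subgroup.centralizer ({x} : Set G)) (M ⊓ Subgroup.centralizer ({x} : Set G)) (Subgroup.centralizer ({x} : Set G)) ∧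
        (∀ y ∈ X, (Nat.card (Cfsg.fittingHallOf L)).Coprime (Nat.card ↥(M ⊓ Subgroup.centralizer ({y} : Set G)))) ∧
        (x ∈ Cfsg.typeA L ∧ x ∉ Cfsg.typeA1 L) ∧
        (Cfsg.IsOfTypeI L ∨ Cfsg.IsOfTypeII L) ∧
        (Cfsg.IsOfTypeII L → ∃ E : Subgroup ↥M, Cfsg.IsFrobeniusComplement E ∧ Cfsg.frobeniusKernel E = ((Cfsg.fittingHall ↥M : Subgroup ↥M) : Set ↥M)) := by
  rw [← H57.typeA'_eq hG hI hV hM, ← H57.typeA0'_eq hG hI hV hM] at hX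
  obtain ⟨h1, h2, h3⟩ := tame_embedding hG hM hI X hX
  refine ⟨h1, h2, fun x hx hC L hL hCL => ?_⟩
  obtain ⟨a, b, c, d, ⟨e, e'⟩, f, g⟩ := h3 x hx hC L hL hCL
  exact ⟨a, b, c, d, ⟨H57.typeA'_eq hG hI hV hL ▸ e, e'⟩,
    f.imp_left (H57.typeI'_iff_typeI hG hI hV hL).1, g⟩

end Cfsg.Agent.H55.BG16
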