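import Cfsg.Agent.H55.BG16.Basic
import Cfsg.Agent.H55.Rank
import Cfsg.Agent.H19.SylowControl

/-!
A nilpotent Hall subgroup of a minimal simple group of odd order lies in some `M_σ`, so its normaliser
controls fusion in it (Bender–Glauberman, the corollary of 15.5).
-/

set_option autoImplicit false
set_option linter.unusedSectionVars false

open scoped Pointwise

namespace Cfsg.Agent.H55.BG16

universe u

variable {G : Type u} [Group G]

/-- In a join of `A` with a subgroup normalising it, a subgroup meeting `A` trivially embeds into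
the image of the second factor. -/
theorem cyclic_and_dvd_of_inf_eq_bot [Finite G] {A X R : Subgroup G}
    (hn : X ≤ Subgroup.normalizer (A : Set G)) (hc : IsCyclic X) (hR : R ≤ A ⊔ X) (hd : R ⊓ A = ⊥) :
    IsCyclic R ∧ Nat.card R ∣ Nat.card X := by
  set L := A ⊔ X
  have : (A.subgroupOf L).Normal :=
    Subgroup.normal_subgroupOf_of_le_normalizer (sup_le Subgroup.le_normalizer hn)
  set f := (QuotientGroup.mk' (A.subgroupOf L)).comp (Subgroup.inclusion (le_sup_right : X ≤ L))
  have hf : Function.Surjective f := by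
    intro y
    obtain ⟨⟨l, hl⟩, rfl⟩ := QuotientGroup.mk'_surjective _ y
    have hl' : l ∈ ((A : Set G) * (X : Set G)) := by
      rw [← Subgroup.coe_mul_of_right_le_normalizer_left A X hn]
      exact hl
    obtain ⟨a, ha, x, hx, rfl⟩ := Set.mem_mul.1 hl'
    refine ⟨⟨x, hx⟩, ?_⟩
    change QuotientGroup.mk _ = QuotientGroup.mk _
    rw [QuotientGroup.eq, Subgroup.mem_subgroupOf]
    simp only [Subgroup.coe_mul, InvMemClass.coe_inv, Subgroup.coe_inclusion]
    have := Subgroup.le_normalizer_iff.1 hn x⁻¹ (inv_mem hx) a ha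
    simpa [mul_assoc] using this
  have hq := hc
  have hLc : IsCyclic (L ⧸ A.subgroupOf L) := isCyclic_of_surjective f hf
  set g := (QuotientGroup.mk' (A.subgroupOf L)).comp (Subgroup.inclusion hR)
  have hg : Function.Injective g := by
    rw [injective_iff_map_eq_one]
    rintro ⟨r, hr⟩ h1
    have h2 : r ∈ A := by
      have := (QuotientGroup.eq_one_iff _).1 h1
      exact this
    exact Subtype.ext (Subgroup.mem_bot.1 (hd ▸ ⟨hr, h2⟩ : r ∈ (⊥ : Subgroup G)))
  refine ⟨isCyclic_of_injective g hg, (Subgroup.card_dvd_of_injective g hg).trans ?_⟩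
  exact Subgroup.card_dvd_of_surjective f hf

/-- A group whose Sylow `p`-subgroup is cyclic has `p`-rank at most one. -/
theorem pRankLE_one_of_cyclic_sylow [Finite G] {p : ℕ} [Fact p.Prime] (Q : Sylow p G)
    (hQ : IsCyclic Q) (M : Subgroup G) : Cfsg.PRankLE p 1 M := by
  by_contra h
  obtain ⟨E, -, hE, hcard⟩ := H55.exists_elementary_of_not_pRankLE h
  obtain ⟨Q', hQ'⟩ := (H55.isPGroup_of_isElementaryAbelian hE).exists_le_sylow
  have := hQ
  have h1 : IsCyclic Q' := isCyclic_of_surjective (Sylow.equiv Q Q').toMonoidHom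
    (Sylow.equiv Q Q').surjective
  refine H55.not_isCyclic_of_elementary hE ?_
    (isCyclic_of_injective (Subgroup.inclusion hQ') (Subgroup.inclusion_injective hQ'))
  rw [hcard]
  exact lt_self_pow₀ (Fact.out : p.Prime).one_lt (by norm_num)

section MinSimple

variable [Finite G] (hG : Cfsg.IsMinSimpleOddOrder G)
include hG

/-- A nontrivial nilpotent Hall subgroup of `G` lies in `M_σ` for some maximal `M`. -/
theorem exists_nilpotentHall_le_sigmaCore (h38 : In1438 G) {H : Subgroup G}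
    (hn : Group.IsNilpotent H) (hHall : (Nat.card H).Coprime H.index) (hH1 : H ≠ ⊥) :
    ∃ M : Subgroup G, IsCoatom M ∧ H ≤ Cfsg.sigmaCore M := by
  obtain ⟨p, hp, hpH⟩ := Nat.exists_prime_and_dvd (fun h => hH1 (Subgroup.card_eq_one.1 h))
  have : Fact p.Prime := ⟨hp⟩
  obtain ⟨P⟩ := (inferInstance : Nonempty (Sylow p H))
  set Pg := (P : Subgroup H).map H.subtype with hPg
  have hidx : ∀ {r : ℕ}, r.Prime → r ∣ Nat.card H → ∀ R : Sylow r H,
      ¬ r ∣ ((R : Subgroup H).map H.subtype).index := by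
    intro r hr hrH R
    have : Fact r.Prime := ⟨hr⟩
    rw [Subgroup.index_map_subtype]
    exact hr.not_dvd_mul R.not_dvd_index
      (fun h => hr.not_dvd_one (hHall ▸ Nat.dvd_gcd hrH h))
  set S := (P.isPGroup'.map H.subtype).toSylow (hidx hp hpH P) with hS
  have hSe : (S : Subgroup G) = Pg := IsPGroup.toSylow_coe _ _
  have hP1 : Pg ≠ ⊥ := by
    intro h
    rw [hPg, Subgroup.map_eq_bot_iff_of_injective _ H.subtype_injective] at h
    exact P.ne_bot_of_dvd_card hpH h
  obtain ⟨M, hPM, hM, hNM, hpσ, -⟩ := H19.exists_maximal_sigma hG S (hSe.symm ▸ hP1)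
  rw [hSe] at hPM hNM
  have hPn : (P : Subgroup H).Normal :=
    ((Group.isNilpotent_of_finite_tfae (G := H)).out 0 3 rfl rfl).1 hn p ⟨hp⟩ P
  have hHM : H ≤ M := (le_normalizer_map_normal (P : Subgroup H)).trans hNM
  refine ⟨M, hM, le_sigmaCore hG hM hHM fun r hr hrH => ?_⟩
  by_contra hrσ
  have : Fact r.Prime := ⟨hr⟩
  obtain ⟨R⟩ := (inferInstance : Nonempty (Sylow r H))
  set Rg := (R : Subgroup H).map H.subtype with hRg
  have hRH : Rg ≤ H := Subgroup.map_subtype_le _
  have hne : p ≠ r := fun h => hrσ (h ▸ hpσ)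
  have hRC : Rg ≤ Subgroup.centralizer (Pg : Set G) := by
    rintro _ ⟨a, ha, rfl⟩
    rw [Subgroup.mem_centralizer_iff]
    rintro _ ⟨b, hb, rfl⟩
    have hco : (orderOf b).Coprime (orderOf a) := by
      obtain ⟨i, hi⟩ := IsPGroup.iff_orderOf.1 P.isPGroup' ⟨b, hb⟩
      obtain ⟨j, hj⟩ := IsPGroup.iff_orderOf.1 R.isPGroup' ⟨a, ha⟩
      rw [← Subgroup.orderOf_coe] at hi hj
      rw [hi, hj]
      exact Nat.Coprime.pow i j ((Nat.coprime_primes hp hr).2 hne)
    exact congrArg H.subtype (H55.commute_of_coprime_orderOf hn hco).eq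
  have hPσ : Pg ≤ Cfsg.sigmaCore M := le_sigmaCore hG hM hPM fun q hq hd => by
    obtain ⟨k, hk⟩ := IsPGroup.iff_card.1 (P.isPGroup'.map H.subtype)
    rw [show Nat.card Pg = p ^ k from hk] at hd
    exact (Nat.prime_dvd_prime_iff_eq hq hp).1 (hq.dvd_of_dvd_pow hd) ▸ hpσ
  obtain ⟨⟨X, hXc, hXπ, hXe⟩, -⟩ := h38 M hM Pg hPσ hP1 (by
    obtain ⟨k, hk⟩ := IsPGroup.iff_card.1 (P.isPGroup'.map H.subtype)
    rw [show Nat.card Pg = p ^ k from hk]
    refine Nat.Coprime.pow_left k (hp.coprime_iff_not_dvd.2 fun h => hidx hp hpH P ?_)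
    exact h.trans ⟨_, (Subgroup.relIndex_mul_index hPσ).symm⟩)
  have hXM : X ≤ M ⊓ Subgroup.centralizer (Pg : Set G) := hXe.ge.trans' le_sup_right
  have hXn : X ≤ Subgroup.normalizer
      ((Cfsg.sigmaCore M ⊓ Subgroup.centralizer (Pg : Set G) : Subgroup G) : Set G) :=
    H20.le_normalizer_inf ((hXM.trans inf_le_left).trans (le_normalizer_sigmaCore M))
      ((hXM.trans inf_le_right).trans Subgroup.le_normalizer)
  have hR1 : Rg ⊓ (Cfsg.sigmaCore M ⊓ Subgroup.centralizer (Pg : Set G)) = ⊥ := by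
    rw [← Subgroup.card_eq_one]
    by_contra h
    obtain ⟨q, hq, hd⟩ := Nat.exists_prime_and_dvd h
    obtain ⟨k, hk⟩ := IsPGroup.iff_card.1 (R.isPGroup'.map H.subtype)
    have hqr : q = r := (Nat.prime_dvd_prime_iff_eq hq hr).1 (hq.dvd_of_dvd_pow
      ((hd.trans (Subgroup.card_dvd_of_le inf_le_left)).trans hk.dvd))
    exact hrσ (hqr ▸ sigmaCore_pi M q hq
      (hd.trans (Subgroup.card_dvd_of_le (inf_le_right.trans inf_le_left))))
  obtain ⟨hRc, hRd⟩ := cyclic_and_dvd_of_inf_eq_bot hXn hXc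
    (hXe ▸ le_inf (hRH.trans hHM) hRC) hR1
  have hrX : r ∣ Nat.card X := by
    refine dvd_trans ?_ hRd
    rw [hRg, Subgroup.card_map_of_injective H.subtype_injective]
    exact R.dvd_card_of_dvd_card hrH
  refine (hXπ r hr hrX).2.2.2 (pRankLE_one_of_cyclic_sylow
    ((R.isPGroup'.map H.subtype).toSylow (hidx hr hrH R)) ?_ M)
  rw [IsPGroup.toSylow_coe]
  exact hRc

/-- The normaliser of a nilpotent Hall subgroup controls fusion in it. -/
theorem nilpotentHall_fusion (h38 : In1438 G) {H : Subgroup G} (hn : Group.IsNilpotent H)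
    (hHall : (Nat.card H).Coprime H.index) :
    ∀ x ∈ H, ∀ g : G, g * x * g⁻¹ ∈ H →
      ∃ n ∈ Subgroup.normalizer (H : Set G), n * x * n⁻¹ = g * x * g⁻¹ := by
  intro x hx g hg
  by_cases hH : H = ⊥
  · subst hH
    obtain rfl := Subgroup.mem_bot.1 hx
    exact ⟨1, one_mem _, by simp⟩
  obtain ⟨M, hM, hle⟩ := exists_nilpotentHall_le_sigmaCore hG h38 hn hHall hH
  obtain ⟨n, hn', he⟩ := (h38 M hM H hle hH
    (hHall.coprime_dvd_right ⟨_, (Subgroup.relIndex_mul_index hle).symm⟩)).2 x hx g hg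
  exact ⟨n, hn'.2, he⟩

end MinSimple

end Cfsg.Agent.H55.BG16
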