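import Cfsg.Agent.H55.BG16.InputsFinal
import Cfsg.Agent.H55.BG16.Frozen
import Cfsg.Agent.H57.NoTypeV
import Cfsg.Agent.H27.PFPairStruct
import Cfsg.Agent.H27.PFSupportU
import Cfsg.Agent.H27.PFNotAllI
import Cfsg.Agent.H27.PFInputs
import Cfsg.Agent.H27.PFBodies

/-! The inputs of Peterfalvi (13), unconditionally. -/

set_option autoImplicit false

namespace Cfsg.Agent.H55.BG16

universe u

variable {G : Type u} [Group G] [Finite G] (hG : Cfsg.IsMinSimpleOddOrder G)
include hG

theorem pairInputs : H27.PairInputs G :=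
  H27.pairInputs_of_bg16 hG (inputs hG) (H57.not_typeV_of_bg16 hG (inputs hG))

theorem frob1540 : H27.Frob1540 G := fun L hL hI =>
  H57.frobenius_frozen hG (inputs hG) (H57.not_typeV_of_bg16 hG (inputs hG)) hL
    ((H57.typeI'_iff_typeI hG (inputs hG) (H57.not_typeV_of_bg16 hG (inputs hG)) hL).1 hI)

theorem struct1543 : H27.Struct1543 G := H27.struct1543_of_inputs hG (pairInputs hG)

theorem tame_frozen (M : Subgroup G) (hM : IsCoatom M) : H57.TameProps M (Cfsg.typeA0 M) :=
  H57.typeA0'_eq hG (inputs hG) (H57.not_typeV_of_bg16 hG (inputs hG)) hM ▸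
    H57.tame_of_bg16 hG (inputs hG) hM

end Cfsg.Agent.H55.BG16
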